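import Cfsg.Agent.Lib.Helper21.SylowBlocks
import Cfsg.Agent.Lib.Helper21.PSolvBlock
import Cfsg.Agent.Lib.Helper21.DefectCard

/-! Ladder DFZ, rung CNT1 (helper98). -/

set_option autoImplicit false

namespace Cfsg.Agent.Lib.Helper78.DFZ

open Cfsg

theorem card_full_eq {G : Type*} [Group G] [Fintype G] {p : ℕ} [Fact p.Prime] {M : Ideal AlgInt}
    (hM : IsPModular p M) (P : Sylow p G) :
    Nat.card {B : Set (IrrCharacter G) // IsPBlock M B ∧
        blockDefect p B = (Nat.card G).factorization p} =
      Nat.card {b : Set (IrrCharacter (Subgroup.normalizer ((P : Subgroup G) : Set G))) //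
        IsPBlock M b ∧ IsDefectGroup p M b
          ((P : Subgroup G).subgroupOf (Subgroup.normalizer ((P : Subgroup G) : Set G)))} := by
  have hp : p.Prime := Fact.out
  rw [← Cfsg.Agent.Lib.Helper21.card_blocks_defect_eq_normalizer hM (P : Subgroup G) P.2]
  apply Nat.card_congr
  apply Equiv.subtypeEquivRight
  intro B
  apply and_congr_right
  intro hB
  constructor
  · intro h
    exact (Cfsg.Agent.Lib.Helper21.isDefectGroup_sylow_of_full hM B hB h).1 P
  · intro hD
    have h1 := Cfsg.Agent.Lib.Helper21.card_defectGroup hM B hB _ hD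
    rw [P.card_eq_multiplicity] at h1
    exact (Nat.pow_right_injective hp.two_le h1).symm

end Cfsg.Agent.Lib.Helper78.DFZ
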