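import Cfsg.Agent.Lib.Helper21.SylowBlocks

/-! Ladder DFZ, rung CNT2 (helper98). -/

set_option autoImplicit false

namespace Cfsg.Agent.Lib.Helper78.DFZ

open Cfsg

theorem cnt2_center_le {G : Type*} [Group G] (H : Subgroup G) :
    Subgroup.center G ≤ Subgroup.normalizer (H : Set G) := by
  intro z hz
  rw [Subgroup.mem_normalizer_iff]
  intro h
  have : z * h * z⁻¹ = h := by
    rw [← (Subgroup.mem_center_iff.mp hz) h, mul_inv_cancel_right]
  rw [this]

theorem cnt2_conj_eq {G : Type*} [Group G] {N : Subgroup G} {z : G} (hz : z ∈ Subgroup.center G)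
    (hzN : z ∈ N) {n : N} (h : ConjClasses.mk n = ConjClasses.mk (⟨z, hzN⟩ : N)) :
    n = ⟨z, hzN⟩ := by
  rw [ConjClasses.mk_eq_mk_iff_isConj, isConj_iff] at h
  obtain ⟨c, hc⟩ := h
  have h1 : (c : G) * (n : G) * (c : G)⁻¹ = z := congrArg Subtype.val hc
  apply Subtype.ext
  change (n : G) = z
  have h2 : (n : G) = (c : G)⁻¹ * z * (c : G) := by rw [← h1]; group
  rw [h2, mul_assoc, ← (Subgroup.mem_center_iff.mp hz) (c : G), inv_mul_cancel_left]

theorem card_normalizer_blocks {G : Type*} [Group G] [Fintype G] {p : ℕ} [Fact p.Prime]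
    {M : Ideal AlgInt} (hM : IsPModular p M) (P : Sylow p G)
    (hreg : ∀ x : G, ¬ p ∣ orderOf x → (∀ u ∈ (P : Subgroup G), u * x = x * u) →
      x ∈ Subgroup.center G)
    (hZ : ¬ p ∣ Nat.card (Subgroup.center G)) :
    Nat.card {b : Set (IrrCharacter (Subgroup.normalizer ((P : Subgroup G) : Set G))) //
        IsPBlock M b ∧ IsDefectGroup p M b
          ((P : Subgroup G).subgroupOf (Subgroup.normalizer ((P : Subgroup G) : Set G)))} =
      Nat.card (Subgroup.center G) := by
  classical
  have hle : (P : Subgroup G) ≤ Subgroup.normalizer ((P : Subgroup G) : Set G) :=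
    Subgroup.le_normalizer
  have hSn : ((P.subtype hle : Sylow p _) :
      Subgroup (Subgroup.normalizer ((P : Subgroup G) : Set G))).Normal := by
    rw [Sylow.coe_subtype]
    exact Subgroup.normal_in_normalizer
  have h1 := Cfsg.Agent.Lib.Helper21.card_blocks_normal_sylow hM (P.subtype hle) hSn
  rw [Sylow.coe_subtype] at h1
  rw [h1]
  symm
  apply Nat.card_congr
  refine Equiv.ofBijective (fun z => ⟨ConjClasses.mk ⟨z.1, cnt2_center_le _ z.2⟩, ?_⟩) ⟨?_, ?_⟩
  · intro n hn
    have hnz := cnt2_conj_eq z.2 (cnt2_center_le _ z.2) hn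
    rw [hnz]
    constructor
    · intro hd
      apply hZ
      rw [Subgroup.orderOf_mk] at hd
      have h2 := orderOf_dvd_natCard z
      rw [Subgroup.orderOf_coe] at hd
      exact hd.trans h2
    · rw [Subgroup.mem_centralizer_iff]
      intro h _
      apply Subtype.ext
      exact (Subgroup.mem_center_iff.mp z.2) (h : G)
  · intro z₁ z₂ h12
    have h2 : ConjClasses.mk (⟨z₁.1, cnt2_center_le _ z₁.2⟩ :
        Subgroup.normalizer ((P : Subgroup G) : Set G))
        = ConjClasses.mk ⟨z₂.1, cnt2_center_le _ z₂.2⟩ := congrArg Subtype.val h12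
    have h3 := cnt2_conj_eq z₂.2 (cnt2_center_le _ z₂.2) h2
    exact Subtype.ext (congrArg
      (fun x : Subgroup.normalizer ((P : Subgroup G) : Set G) => (x : G)) h3)
  · rintro ⟨C, hC⟩
    obtain ⟨n, hn⟩ := ConjClasses.exists_rep C
    obtain ⟨hn1, hn2⟩ := hC n hn
    have hnc : (n : G) ∈ Subgroup.center G := by
      apply hreg
      · rwa [Subgroup.orderOf_coe]
      · intro u hu
        have := (Subgroup.mem_centralizer_iff.mp hn2) ⟨u, hle hu⟩
          (Subgroup.mem_subgroupOf.mpr hu)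
        exact congrArg Subtype.val this
    refine ⟨⟨n, hnc⟩, ?_⟩
    apply Subtype.ext
    exact hn

end Cfsg.Agent.Lib.Helper78.DFZ
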