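import Cfsg.Agent.Lib.Helper78.DFZ.DLD
import Cfsg.Agent.Lib.Helper89.UniSL
import Cfsg.Agent.Lib.Helper45.SLGen

set_option autoImplicit false

/-! Ladder DFZ, rung CU. -/

namespace Cfsg.Agent.Lib.Helper78.DFZ

open Matrix

section SL
variable {F : Type*} [Field F] [Fintype F] {n : ℕ} {p : ℕ} [Fact p.Prime] [CharP F p]

local notation "SLn" => Matrix.SpecialLinearGroup (Fin n) F

omit [Fact p.Prime] [CharP F p] in
/-- a vector fixed by `U` is a multiple of `e_0` -/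
theorem cu_fix (hn : 1 ≤ n) (v : Fin n → F) (hv : FixV (Cfsg.Agent.Lib.Helper89.UT.U n F) v) :
    v = v ⟨0, hn⟩ • Pi.single (⟨0, hn⟩ : Fin n) (1 : F) := by
  funext j
  by_cases hj : j = ⟨0, hn⟩
  · subst hj; simp
  · have hlt : (⟨0, hn⟩ : Fin n) < j := by
      rw [Fin.lt_def]
      have : j.val ≠ 0 := fun h => hj (Fin.ext h)
      simp only
      omega
    have h1 := hv _ (Cfsg.Agent.Lib.Helper89.UT.transvection_mem_U hlt (1 : F))
    rw [Cfsg.Agent.Lib.Helper45.T_mulVec] at h1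
    have h2 := congrFun h1 ⟨0, hn⟩
    rw [Function.update_self, one_mul] at h2
    have h3 : v j = 0 := by linear_combination h2
    simp [h3, hj]

omit [Fact p.Prime] [CharP F p] in
theorem cu_e0 (hn : 1 ≤ n) :
    FixV (Cfsg.Agent.Lib.Helper89.UT.U n F) (Pi.single (⟨0, hn⟩ : Fin n) (1 : F)) := by
  intro u hu
  funext a
  rw [Matrix.mulVec_single_one]
  show u.1 a ⟨0, hn⟩ = _
  rw [hu a ⟨0, hn⟩ (Fin.le_def.2 (Nat.zero_le _)), Matrix.one_apply, Pi.single_apply]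

theorem sl_reg_central (hn : 1 ≤ n) (x : SLn) (hx : ¬ p ∣ orderOf x)
    (hc : ∀ u ∈ Cfsg.Agent.Lib.Helper89.UT.U n F, u * x = x * u) : x ∈ Subgroup.center SLn := by
  set e0 : Fin n → F := Pi.single (⟨0, hn⟩ : Fin n) (1 : F) with he0
  have hw : FixV (Cfsg.Agent.Lib.Helper89.UT.U n F) ((x : Matrix (Fin n) (Fin n) F) *ᵥ e0) := by
    intro u hu
    rw [← dlb_mul, hc u hu, dlb_mul, cu_e0 hn u hu]
  have hw2 := cu_fix hn _ hw
  refine dl_central (p := p) (Cfsg.Agent.Lib.Helper89.UT.U n F)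
    (Cfsg.Agent.Lib.Helper89.UT.isPGroup_U p) x hx hc
    (((x : Matrix (Fin n) (Fin n) F) *ᵥ e0) ⟨0, hn⟩) ?_
  intro v hv
  have hv2 := cu_fix hn v hv
  rw [← he0] at hv2 hw2
  rw [hv2, Matrix.mulVec_smul]
  conv_lhs => rw [hw2]
  rw [smul_smul, smul_smul, mul_comm]

end SL

end Cfsg.Agent.Lib.Helper78.DFZ
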