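import Cfsg.Agent.Lib.Helper78.DFZ.Main
import Cfsg.Agent.Lib.Helper78.DFZ.ZC
import Cfsg.Agent.Lib.Helper78.DFZ.CU
import Cfsg.Agent.Lib.Helper78.DFZ.CNT1
import Cfsg.Agent.Lib.Helper78.DFZ.CNT2
import Cfsg.Agent.Lib.Helper78.DFZ.EX
import Cfsg.Agent.Lib.Helper21.SylowBlocks

/-! Ladder DFZ: the number of blocks of `SL_n(F)` in the defining characteristic is `|Z| + 1`. -/

set_option autoImplicit false

namespace Cfsg.Agent.Lib.Helper78.DFZ

open Cfsg Matrix

variable {F : Type*} [Field F] [Fintype F] {n : ℕ} {p : ℕ} [Fact p.Prime] [CharP F p]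

local notation "SLn" => Matrix.SpecialLinearGroup (Fin n) F

theorem sl_card_full (hn : 1 ≤ n) {M : Ideal AlgInt} (hM : IsPModular p M) :
    Nat.card {B : Set (IrrCharacter SLn) // IsPBlock M B ∧
        blockDefect p B = (Nat.card SLn).factorization p} = Nat.card (Subgroup.center SLn) := by
  classical
  rw [card_full_eq hM (Cfsg.Agent.Lib.Helper89.UT.sylU (K := F) p hn)]
  exact card_normalizer_blocks hM _ (fun x hx hc => sl_reg_central (p := p) hn x hx hc)
    (sl_center_not_dvd (p := p))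

theorem sl_card_zero (hn : 2 ≤ n) {M : Ideal AlgInt} (hM : IsPModular p M) :
    Nat.card {B : Set (IrrCharacter SLn) // IsPBlock M B ∧ blockDefect p B = 0} = 1 := by
  rw [Nat.card_eq_one_iff_unique]
  refine ⟨⟨fun B₁ B₂ => Subtype.ext ?_⟩, ?_⟩
  · exact sl_unique_zero (F := F) (p := p) (by omega) hM B₁.1 B₂.1 B₁.2.1 B₂.2.1 B₁.2.2 B₂.2.2
  · obtain ⟨B, hB, hd⟩ := exists_defect_zero (F := F) n hn p M hM
    exact ⟨⟨B, hB, hd⟩⟩

theorem sl_fact_ne_zero (hn : 2 ≤ n) : (Nat.card SLn).factorization p ≠ 0 := by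
  have hp : p.Prime := Fact.out
  obtain ⟨f, hf0, hf⟩ := Cfsg.Agent.Lib.Helper89.UT.exists_card_eq (K := F) p
  have h1 : Nat.card F ^ ((⟨1, hn⟩ : Fin n) : ℕ) ∣ ∏ i : Fin n, Nat.card F ^ (i : ℕ) :=
    Finset.dvd_prod_of_mem (fun i : Fin n => Nat.card F ^ (i : ℕ)) (Finset.mem_univ _)
  rw [← Cfsg.Agent.Lib.Helper89.UT.card_U] at h1
  have h2 : p ∣ Nat.card F := by rw [hf]; exact dvd_pow_self p hf0.ne'
  have h3 : p ∣ Nat.card SLn :=
    (h2.trans (by simpa using h1)).trans (Subgroup.card_subgroup_dvd_card _)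
  have h4 : Nat.card SLn ≠ 0 := Nat.card_pos.ne'
  exact (hp.factorization_pos_of_dvd h4 h3).ne'

/-- the number of blocks of `SL_n(F)` -/
theorem sl_card_blocks (hn : 2 ≤ n) {M : Ideal AlgInt} (hM : IsPModular p M) :
    Nat.card {B : Set (IrrCharacter SLn) // IsPBlock M B} = Nat.card (Subgroup.center SLn) + 1 := by
  classical
  have h0 := sl_card_zero (F := F) (n := n) (p := p) hn hM
  have h1 := sl_card_full (F := F) (n := n) (p := p) (by omega) hM
  have ha := sl_fact_ne_zero (F := F) (n := n) (p := p) hn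
  have : Finite {B : Set (IrrCharacter SLn) // IsPBlock M B ∧ blockDefect p B = 0} :=
    Nat.finite_of_card_ne_zero (by rw [h0]; exact one_ne_zero)
  have : Finite {B : Set (IrrCharacter SLn) // IsPBlock M B ∧
        blockDefect p B = (Nat.card SLn).factorization p} :=
    Nat.finite_of_card_ne_zero (by rw [h1]; exact Nat.card_pos.ne')
  let e : {B : Set (IrrCharacter SLn) // IsPBlock M B} ≃
      {B : Set (IrrCharacter SLn) // IsPBlock M B ∧
        blockDefect p B = (Nat.card SLn).factorization p} ⊕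
      {B : Set (IrrCharacter SLn) // IsPBlock M B ∧ blockDefect p B = 0} :=
    { toFun := fun B => if h : blockDefect p B.1 = 0 then Sum.inr ⟨B.1, B.2, h⟩
        else Sum.inl ⟨B.1, B.2, (dichotomy hM B.1 B.2).resolve_left h⟩
      invFun := Sum.elim (fun B => ⟨B.1, B.2.1⟩) (fun B => ⟨B.1, B.2.1⟩)
      left_inv := by
        intro B
        by_cases h : blockDefect p B.1 = 0
        · simp [h]
        · simp [h]
      right_inv := by
        rintro (B | B)
        · have h : blockDefect p B.1 ≠ 0 := by rw [B.2.2]; exact ha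
          simp [h]
        · have h : blockDefect p B.1 = 0 := B.2.2
          simp [h] }
  rw [Nat.card_congr e, Nat.card_sum, h0, h1]

end Cfsg.Agent.Lib.Helper78.DFZ
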