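import Cfsg.Agent.Lib.Helper78.DFZ.Count
import Cfsg.Agent.Lib.Helper79.Central
import Cfsg.Agent.Lib.Helper81.BlockProj
import Cfsg.Agent.Lib.Helper4.CharBasic
import Cfsg.Agent.Lib.Helper21.PSolvBlock
import Cfsg.Agent.S0136

/-! Ladder DFZ: the three blocks of `SL_2(F)`, `p` odd. -/

set_option autoImplicit false

namespace Cfsg.Agent.Lib.Helper78.DFZ

open Cfsg Cfsg.Agent.Lib.Helper81

section abs
variable {G : Type*} [Group G] {p : ℕ} {M : Ideal AlgInt}

/-- a central involution takes the values `± χ 1` -/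
theorem s2_pm {χ : G → ℂ} (h : IsIrrCharacter G χ) (z : G) (hz : z ∈ Subgroup.center G)
    (hzz : z * z = 1) : χ z = χ 1 ∨ χ z = -χ 1 := by
  have h1 := Cfsg.Agent.Lib.Helper79.IsIrrCharacter.one_ne_zero h
  have h2 := Cfsg.Agent.Lib.Helper79.IsIrrCharacter.mul_central h z hz z
  rw [hzz] at h2
  have h3 : χ z * χ z = χ 1 * χ 1 := by
    field_simp at h2
    linear_combination -h2
  exact mul_self_eq_mul_self_iff.1 h3

theorem s2_centralChar {χ : G → ℂ} (z : G) (hz : z ∈ Subgroup.center G) :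
    centralChar χ z = χ z / χ 1 := by
  have htop : Subgroup.centralizer ({z} : Set G) = ⊤ := by
    rw [eq_top_iff]
    intro y _
    rw [Subgroup.mem_centralizer_iff]
    rintro h rfl
    exact (Subgroup.mem_center_iff.1 hz y).symm
  unfold centralChar
  rw [htop, Subgroup.index_top, Nat.cast_one, one_mul]

theorem s2_sep (hM : IsPModular p M) (hp : p ≠ 2) {χ ψ : G → ℂ} (hχ : IsIrrCharacter G χ)
    (hψ : IsIrrCharacter G ψ) (z : G) (hz : z ∈ Subgroup.center G) (hzz : z * z = 1)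
    (hs : SameBlock M χ ψ) (h : χ z = χ 1) : ψ z = ψ 1 := by
  rcases s2_pm hψ z hz hzz with h' | h'
  · exact h'
  · exfalso
    have h1 := Cfsg.Agent.Lib.Helper79.IsIrrCharacter.one_ne_zero hχ
    have h2 := Cfsg.Agent.Lib.Helper79.IsIrrCharacter.one_ne_zero hψ
    have h3 := hs z
    rw [s2_centralChar z hz, s2_centralChar z hz, h, h', div_self h1, neg_div, div_self h2] at h3
    have h4 : (1 : ℂ) - -1 = ((2 : ℕ) : ℂ) := by norm_num
    rw [h4, memLocalIdeal_natCast_iff hM] at h3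
    exact hp ((Nat.prime_dvd_prime_iff_eq hM.1 Nat.prime_two).1 h3)

theorem s2_sep' (hM : IsPModular p M) (hp : p ≠ 2) {χ ψ : G → ℂ} (hχ : IsIrrCharacter G χ)
    (hψ : IsIrrCharacter G ψ) (z : G) (hz : z ∈ Subgroup.center G) (hzz : z * z = 1)
    (hs : SameBlock M χ ψ) (h : χ z = -χ 1) : ψ z = -ψ 1 := by
  rcases s2_pm hψ z hz hzz with h' | h'
  · exfalso
    have h1 := Cfsg.Agent.Lib.Helper79.IsIrrCharacter.one_ne_zero hχ
    have h2 := s2_sep hM hp hψ hχ z hz hzz (sameBlock_symm hs) h'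
    rw [h] at h2
    apply h1
    linear_combination -(1/2 : ℂ) * h2
  · exact h'

end abs

end Cfsg.Agent.Lib.Helper78.DFZ
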